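import Mathlib
import Cfsg.Agent.Lib.Classical.Orth.Spinor
import Cfsg.Agent.Lib.Classical.Orth.Dickson

/-!
Subgroups of index two of `O(Q)` and of `SO(Q)` over a finite field.
-/

set_option autoImplicit false
set_option linter.unusedSectionVars false
set_option linter.unusedSimpArgs false
set_option linter.unusedVariables false

namespace Cfsg.Agent.Lib.Classical.Orth.IndexTwo

open Matrix QuadraticMap Module
open Cfsg.Agent.Lib.Classical.Orth.Basic
open Cfsg.Agent.Lib.Classical.Orth.CartanDieudonne
open Cfsg.Agent.Lib.Classical.Orth.Spinor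

variable {ι : Type} [Fintype ι] [DecidableEq ι] {F : Type*} [Field F] [Fintype F]
variable (Q : QuadraticForm F (ι → F))

theorem omega_le_of_index_two (H : Subgroup ↥(Cfsg.isometryGroup F (⇑Q))) (hH : H.index = 2) :
    Cfsg.Omega F (⇑Q) ≤ H := by
  show commutator _ ≤ H
  rw [commutator_def, Subgroup.commutator_le]
  intro a _ b _
  rw [commutatorElement_def]
  simp only [Subgroup.mul_mem_iff_of_index_two hH, Subgroup.inv_mem_iff]
  tauto

theorem eq_ker_of_index_two (hQ : (polarBilin Q).Nondegenerate) (h2 : (2 : F) ≠ 0)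
    (H : Subgroup ↥(Cfsg.isometryGroup F (⇑Q))) (hH : H.index = 2)
    (ψ : ↥(Cfsg.isometryGroup F (⇑Q)) →* ℤˣ)
    (h : ∀ (v : ι → F) (hv : Q v ≠ 0), ψ (reflectionIso Q v hv) = 1 ↔ reflectionIso Q v hv ∈ H) :
    H = ψ.ker := by
  ext g
  rw [MonoidHom.mem_ker]
  induction g using isometry_induction Q hQ h2 with
  | h1 => simp [H.one_mem]
  | hstep v hv g ih =>
    rw [Subgroup.mul_mem_iff_of_index_two hH, ih, ← h v hv, map_mul]
    rcases Int.units_eq_one_or (ψ (reflectionIso Q v hv)) with h3 | h3 <;>
      rcases Int.units_eq_one_or (ψ g) with h4 | h4 <;> rw [h3, h4] <;> decide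

/-- Exactly three subgroups of index two in `O(Q)`. -/
theorem card_index_two (hQ : (polarBilin Q).Nondegenerate) (h2 : (2 : F) ≠ 0)
    (hn : 2 ≤ Fintype.card ι) :
    Nat.card {H : Subgroup ↥(Cfsg.isometryGroup F (⇑Q)) // H.index = 2} = 3 := by
  classical
  set P := plusSign Q with hP
  set S := spinorSign Q h2 with hS
  obtain ⟨vp, hvp⟩ := exists_value Q hQ h2 hn 1
  obtain ⟨vm, hvm⟩ := exists_value Q hQ h2 hn (nonsq h2)
  have h1 : Q vp ≠ 0 := by rw [hvp]; exact one_ne_zero
  have h3 : Q vm ≠ 0 := by rw [hvm]; exact nonsq_ne_zero h2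
  have hsqp : IsSquare (Q vp) := by rw [hvp]; exact IsSquare.one
  have hsqm : ¬ IsSquare (Q vm) := by rw [hvm]; exact nonsq_spec h2
  set rp := reflectionIso Q vp h1 with hrp
  set rm := reflectionIso Q vm h3 with hrm
  have hPp : P rp = -1 := by
    rw [hP, hrp, plusSign_reflection Q h2, if_pos hsqp]
  have hPm : P rm = 1 := by
    rw [hP, hrm, plusSign_reflection Q h2, if_neg hsqm]
  have hSp : S rp = 1 := by
    rw [hS, hrp, spinorSign_reflection Q h2, if_pos hsqp]
  have hSm : S rm = -1 := by
    rw [hS, hrm, spinorSign_reflection Q h2, if_neg hsqm]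
  have hker2 : ∀ (ψ : ↥(Cfsg.isometryGroup F (⇑Q)) →* ℤˣ) (g), ψ g = -1 → ψ.ker.index = 2 := by
    intro ψ g hg
    have hsurj : Function.Surjective ψ := by
      intro a
      rcases Int.units_eq_one_or a with rfl | rfl
      · exact ⟨1, map_one _⟩
      · exact ⟨g, hg⟩
    rw [Subgroup.index_ker, MonoidHom.range_eq_top.2 hsurj,
      Nat.card_congr Subgroup.topEquiv.toEquiv]
    simp [Nat.card_eq_fintype_card]
  have hK1 : P.ker.index = 2 := hker2 P rp hPp
  have hK2 : S.ker.index = 2 := hker2 S rm hSm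
  have hK3 : (P * S).ker.index = 2 := hker2 (P * S) rp (by
    rw [MonoidHom.mul_apply, hPp, hSp]; rfl)
  -- classification
  have hclass : ∀ H : Subgroup ↥(Cfsg.isometryGroup F (⇑Q)), H.index = 2 →
      H = P.ker ∨ H = S.ker ∨ H = (P * S).ker := by
    intro H hH
    have hΩ := omega_le_of_index_two Q H hH
    have hsame : ∀ (u v : ι → F) (hu : Q u ≠ 0) (hv : Q v ≠ 0), IsSquare (Q u / Q v) →
        (reflectionIso Q u hu ∈ H ↔ reflectionIso Q v hv ∈ H) := by
      intro u v hu hv hsq
      have h4 := hΩ (reflection_mul_mem_omega Q h2 u v hu hv hsq)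
      rw [Subgroup.mul_mem_iff_of_index_two hH] at h4
      exact h4.symm
    have hp : ∀ (v : ι → F) (hv : Q v ≠ 0), IsSquare (Q v) →
        (reflectionIso Q v hv ∈ H ↔ rp ∈ H) := by
      intro v hv hsq
      exact hsame v vp hv h1 (hsq.div hsqp)
    have hm : ∀ (v : ι → F) (hv : Q v ≠ 0), ¬ IsSquare (Q v) →
        (reflectionIso Q v hv ∈ H ↔ rm ∈ H) := by
      intro v hv hsq
      exact hsame v vm hv h3 (isSquare_div_of_not_isSquare h3 hv hsq hsqm)
    by_cases hpH : rp ∈ H <;> by_cases hmH : rm ∈ H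
    · exfalso
      have htop : H = ⊤ := by
        rw [eq_top_iff]
        rintro g -
        induction g using isometry_induction Q hQ h2 with
        | h1 => exact H.one_mem
        | hstep v hv g ih =>
          apply H.mul_mem _ ih
          by_cases hsq : IsSquare (Q v)
          · exact (hp v hv hsq).2 hpH
          · exact (hm v hv hsq).2 hmH
      rw [htop, Subgroup.index_top] at hH
      omega
    · -- spinor
      right; left
      apply eq_ker_of_index_two Q hQ h2 H hH
      intro v hv
      rw [hS, spinorSign_reflection Q h2]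
      by_cases hsq : IsSquare (Q v)
      · rw [if_pos hsq]
        simp [(hp v hv hsq).2 hpH]
      · rw [if_neg hsq]
        have : reflectionIso Q v hv ∉ H := fun h => hmH ((hm v hv hsq).1 h)
        simp [this]
    · -- plus
      left
      apply eq_ker_of_index_two Q hQ h2 H hH
      intro v hv
      rw [hP, plusSign_reflection Q h2]
      by_cases hsq : IsSquare (Q v)
      · rw [if_pos hsq]
        have : reflectionIso Q v hv ∉ H := fun h => hpH ((hp v hv hsq).1 h)
        simp [this]
      · rw [if_neg hsq]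
        simp [(hm v hv hsq).2 hmH]
    · -- det
      right; right
      apply eq_ker_of_index_two Q hQ h2 H hH
      intro v hv
      rw [MonoidHom.mul_apply, hP, hS, plusSign_reflection Q h2, spinorSign_reflection Q h2]
      by_cases hsq : IsSquare (Q v)
      · rw [if_pos hsq, if_pos hsq]
        have : reflectionIso Q v hv ∉ H := fun h => hpH ((hp v hv hsq).1 h)
        simp [this]
      · rw [if_neg hsq, if_neg hsq]
        have : reflectionIso Q v hv ∉ H := fun h => hmH ((hm v hv hsq).1 h)
        simp [this]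
  -- distinctness
  have hne12 : P.ker ≠ S.ker := by
    intro h
    have h4 : rp ∈ S.ker := by rw [MonoidHom.mem_ker]; exact hSp
    rw [← h, MonoidHom.mem_ker, hPp] at h4
    exact absurd h4 (by decide)
  have hne23 : S.ker ≠ (P * S).ker := by
    intro h
    have h4 : rp ∈ S.ker := by rw [MonoidHom.mem_ker]; exact hSp
    rw [h, MonoidHom.mem_ker, MonoidHom.mul_apply, hPp, hSp] at h4
    exact absurd h4 (by decide)
  have hne13 : P.ker ≠ (P * S).ker := by
    intro h
    have h4 : rm ∈ P.ker := by rw [MonoidHom.mem_ker]; exact hPm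
    rw [h, MonoidHom.mem_ker, MonoidHom.mul_apply, hPm, hSm] at h4
    exact absurd h4 (by decide)
  let e : Fin 3 → {H : Subgroup ↥(Cfsg.isometryGroup F (⇑Q)) // H.index = 2} :=
    ![⟨P.ker, hK1⟩, ⟨S.ker, hK2⟩, ⟨(P * S).ker, hK3⟩]
  have hbij : Function.Bijective e := by
    constructor
    · intro a b hab
      have h5 := congrArg Subtype.val hab
      fin_cases a <;> fin_cases b <;> first
        | rfl
        | exact absurd h5 hne12
        | exact absurd h5 hne13
        | exact absurd h5 hne23
        | exact absurd h5.symm hne12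
        | exact absurd h5.symm hne13
        | exact absurd h5.symm hne23
    · rintro ⟨H, hH⟩
      rcases hclass H hH with h | h | h
      · exact ⟨0, Subtype.ext h.symm⟩
      · exact ⟨1, Subtype.ext h.symm⟩
      · exact ⟨2, Subtype.ext h.symm⟩
  rw [← Nat.card_eq_of_bijective e hbij]
  simp

section SO

set_option quotPrecheck false in
local notation "𝔣" => polar (⇑Q)

omit [Fintype F] in
/-- The reflection conjugating `r_u` to `r_w`, when `Q u = Q w`. -/
theorem exists_reflection_conj (h2 : (2 : F) ≠ 0) (u w : ι → F) (hu : Q u ≠ 0) (huw : Q u = Q w)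
    (hw : Q w ≠ 0) :
    ∃ (x : ι → F) (hx : Q x ≠ 0),
      reflectionIso Q x hx * reflectionIso Q u hu * reflectionIso Q x hx = reflectionIso Q w hw := by
  by_cases h0 : Q (u - w) = 0
  · have h1 : Q (u + w) ≠ 0 := by
      intro h3
      have h4 := Q_add Q u w
      have h5 := Q_sub Q u w
      rw [h3] at h4
      rw [h0] at h5
      apply hu
      have h6 : 2 * (2 * Q u) = 0 := by
        have : Q u + Q w = 0 := by
          have h7 : (2 : F) * (Q u + Q w) = 0 := by linear_combination -h4 - h5
          exact (mul_eq_zero.1 h7).resolve_left h2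
        rw [huw] at this ⊢
        linear_combination 2 * this
      exact (mul_eq_zero.1 ((mul_eq_zero.1 h6).resolve_left h2)).resolve_left h2
    refine ⟨u + w, h1, ?_⟩
    have hinv := reflectionIso_inv Q (u + w) h1
    conv_lhs => rw [← hinv]
    rw [hinv]
    nth_rewrite 2 [← hinv]
    rw [conj_reflectionIso]
    have h3 : act (reflectionIso Q (u + w) h1) u = (-1 : F) • w := by
      rw [reflectionIso_act]
      have h4 : 𝔣 (u + w) u = Q (u + w) := by
        rw [polar_add_left, polar_self_eq, Q_add, polar_comm]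
        rw [← huw]
        ring
      rw [h4, inv_mul_cancel₀ h1, one_smul]
      simp
    have h6 : ∀ (x : ι → F) (hx : Q x ≠ 0) (hxx : x = (-1 : F) • w),
        reflectionIso Q x hx = reflectionIso Q w hw := by
      intro x hx hxx
      subst hxx
      exact reflectionIso_smul Q (-1) (by simp [neg_eq_zero]) w hw hx
    exact h6 _ _ h3
  · refine ⟨u - w, h0, ?_⟩
    have hinv := reflectionIso_inv Q (u - w) h0
    nth_rewrite 2 [← hinv]
    exact Dickson.conj_of_sub_ne u w hu huw hw h0

omit [Fintype F] in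
theorem exists_reflection_conj' (h2 : (2 : F) ≠ 0) (u v : ι → F) (hu : Q u ≠ 0) (hv : Q v ≠ 0)
    (hsq : IsSquare (Q u / Q v)) :
    ∃ (x : ι → F) (hx : Q x ≠ 0),
      reflectionIso Q x hx * reflectionIso Q u hu * reflectionIso Q x hx = reflectionIso Q v hv := by
  obtain ⟨t, ht⟩ := hsq
  have ht0 : t ≠ 0 := by
    rintro rfl
    rw [mul_zero, div_eq_zero_iff] at ht
    rcases ht with h | h
    · exact hu h
    · exact hv h
  have hQ1 : Q (t • v) = Q u := by
    rw [Q_smul, ← ht]
    field_simp
  have hw : Q (t • v) ≠ 0 := by rw [hQ1]; exact hu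
  obtain ⟨x, hx, hh⟩ := exists_reflection_conj Q h2 u (t • v) hu hQ1.symm hw
  rw [reflectionIso_smul Q t ht0 v hv hw] at hh
  exact ⟨x, hx, hh⟩

omit [Fintype F] in
theorem mem_SO_iff (g : ↥(Cfsg.isometryGroup F (⇑Q))) :
    g ∈ Cfsg.specialIsometryGroup F (⇑Q) ↔ ((g : GL ι F) : Matrix ι ι F).det = 1 := by
  unfold Cfsg.specialIsometryGroup
  rw [MonoidHom.mem_ker]
  constructor
  · intro h
    have := congrArg Units.val h
    simpa using this
  · intro h
    apply Units.ext
    simpa using h

omit [Fintype F] in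
theorem reflection_mul_mem_SO_iff (hQ : (polarBilin Q).Nondegenerate) (h2 : (2 : F) ≠ 0)
    (v : ι → F) (hv : Q v ≠ 0) (g : ↥(Cfsg.isometryGroup F (⇑Q))) :
    reflectionIso Q v hv * g ∈ Cfsg.specialIsometryGroup F (⇑Q) ↔
      g ∉ Cfsg.specialIsometryGroup F (⇑Q) := by
  have hne : (1 : F) ≠ -1 := by
    intro h
    apply h2
    linear_combination h
  rw [mem_SO_iff, mem_SO_iff]
  have h4 : (((reflectionIso Q v hv * g : ↥(Cfsg.isometryGroup F (⇑Q))) : GL ι F) : Matrix ι ι F)
      = Cfsg.reflectionMatrix (⇑Q) v * ((g : GL ι F) : Matrix ι ι F) := rfl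
  rw [h4, Matrix.det_mul, det_reflectionMatrix Q hv]
  rcases det_isometry Q hQ g with h5 | h5 <;> rw [h5]
  · simp [hne.symm]
  · simp [hne.symm]

theorem reflection_mul_reflection_mem_SO (u v : ι → F) (hu : Q u ≠ 0) (hv : Q v ≠ 0) :
    reflectionIso Q u hu * reflectionIso Q v hv ∈ Cfsg.specialIsometryGroup F (⇑Q) := by
  rw [mem_SO_iff]
  show (Cfsg.reflectionMatrix (⇑Q) u * Cfsg.reflectionMatrix (⇑Q) v).det = 1
  rw [Matrix.det_mul, det_reflectionMatrix Q hu, det_reflectionMatrix Q hv]
  ring

/-- Odd characteristic: `SO` has exactly one subgroup of index two. -/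
theorem so_unique_index_two_odd (hQ : (polarBilin Q).Nondegenerate) (h2 : (2 : F) ≠ 0)
    (hn : 2 ≤ Fintype.card ι) :
    ∃! H : Subgroup ↥(Cfsg.specialIsometryGroup F (⇑Q)), H.index = 2 := by
  classical
  set SO := Cfsg.specialIsometryGroup F (⇑Q) with hSO
  set S := spinorSign Q h2 with hS
  obtain ⟨vp, hvp⟩ := exists_value Q hQ h2 hn 1
  obtain ⟨vm, hvm⟩ := exists_value Q hQ h2 hn (nonsq h2)
  have h1 : Q vp ≠ 0 := by rw [hvp]; exact one_ne_zero
  have h3 : Q vm ≠ 0 := by rw [hvm]; exact nonsq_ne_zero h2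
  have hsqp : IsSquare (Q vp) := by rw [hvp]; exact IsSquare.one
  have hsqm : ¬ IsSquare (Q vm) := by rw [hvm]; exact nonsq_spec h2
  set r₀ := reflectionIso Q vp h1 with hr₀
  set K : Subgroup ↥SO := (S.comp SO.subtype).ker with hK
  have hSr : ∀ (w : ι → F) (hw : Q w ≠ 0), S (reflectionIso Q w hw) = if IsSquare (Q w) then 1 else -1 :=
    fun w hw => spinorSign_reflection Q h2 w hw
  have hKindex : K.index = 2 := by
    have hsurj : Function.Surjective (S.comp SO.subtype) := by
      intro a
      rcases Int.units_eq_one_or a with rfl | rfl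
      · exact ⟨1, map_one _⟩
      · refine ⟨⟨r₀ * reflectionIso Q vm h3, reflection_mul_reflection_mem_SO Q vp vm h1 h3⟩, ?_⟩
        show S (r₀ * reflectionIso Q vm h3) = -1
        rw [map_mul, hr₀, hSr, hSr, if_pos hsqp, if_neg hsqm, one_mul]
    rw [hK, Subgroup.index_ker, MonoidHom.range_eq_top.2 hsurj,
      Nat.card_congr Subgroup.topEquiv.toEquiv]
    simp [Nat.card_eq_fintype_card]
  refine ⟨K, hKindex, ?_⟩
  intro H hH
  -- work in the ambient group
  set H' : Subgroup ↥(Cfsg.isometryGroup F (⇑Q)) := H.map SO.subtype with hH'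
  have hmemH' : ∀ (x : ↥SO), (x : ↥(Cfsg.isometryGroup F (⇑Q))) ∈ H' ↔ x ∈ H := by
    intro x
    rw [hH', Subgroup.mem_map]
    constructor
    · rintro ⟨y, hy, hyx⟩
      have : y = x := Subtype.ext hyx
      rwa [← this]
    · intro hx
      exact ⟨x, hx, rfl⟩
  have hmul : ∀ a b (ha : a ∈ SO) (hb : b ∈ SO), (a * b ∈ H' ↔ (a ∈ H' ↔ b ∈ H')) := by
    intro a b ha hb
    have h5 := Subgroup.mul_mem_iff_of_index_two hH (a := ⟨a, ha⟩) (b := ⟨b, hb⟩)
    rw [← hmemH', ← hmemH', ← hmemH'] at h5
    exact h5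
  have hsq : ∀ a (ha : a ∈ SO), a * a ∈ H' := by
    intro a ha
    rw [hmul a a ha ha]
  have hpair : ∀ (u v : ι → F) (hu : Q u ≠ 0) (hv : Q v ≠ 0), IsSquare (Q u / Q v) →
      reflectionIso Q v hv * reflectionIso Q u hu ∈ H' := by
    intro u v hu hv hs
    obtain ⟨x, hx, hh⟩ := exists_reflection_conj' Q h2 u v hu hv hs
    rw [← hh]
    have h6 : reflectionIso Q x hx * reflectionIso Q u hu * reflectionIso Q x hx * reflectionIso Q u hu
        = (reflectionIso Q x hx * reflectionIso Q u hu) * (reflectionIso Q x hx * reflectionIso Q u hu) := by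
      group
    rw [h6]
    exact hsq _ (reflection_mul_reflection_mem_SO Q x u hx hu)
  have hrSO : ∀ (u v : ι → F) (hu : Q u ≠ 0) (hv : Q v ≠ 0),
      reflectionIso Q u hu * reflectionIso Q v hv ∈ SO := reflection_mul_reflection_mem_SO Q
  -- the pair lemma
  have hPL : ∀ (w : ι → F) (hw : Q w ≠ 0), (r₀ * reflectionIso Q w hw ∈ H' ↔ IsSquare (Q w)) := by
    intro w hw
    constructor
    · intro h5
      by_contra hns
      -- then everything lies in `H'`
      have hall : ∀ (w' : ι → F) (hw' : Q w' ≠ 0), r₀ * reflectionIso Q w' hw' ∈ H' := by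
        intro w' hw'
        by_cases hs' : IsSquare (Q w')
        · exact hpair w' vp hw' h1 (hs'.div hsqp)
        · have h6 : r₀ * reflectionIso Q w' hw' =
              (r₀ * reflectionIso Q w hw) * (reflectionIso Q w hw * reflectionIso Q w' hw') := by
            rw [mul_assoc, ← mul_assoc (reflectionIso Q w hw), reflectionIso_mul_self, one_mul]
          rw [h6]
          exact H'.mul_mem h5 (hpair w' w hw' hw (isSquare_div_of_not_isSquare hw hw' hs' hns))
      have hrr : r₀ * r₀ = 1 := reflectionIso_mul_self Q vp h1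
      have hT : ∀ g : ↥(Cfsg.isometryGroup F (⇑Q)),
          (g ∈ SO → g ∈ H') ∧ (g ∉ SO → r₀ * g ∈ H') := by
        intro g
        induction g using isometry_induction Q hQ h2 with
        | h1 => exact ⟨fun _ => H'.one_mem, fun h => absurd SO.one_mem h⟩
        | hstep v hv g ih =>
          constructor
          · intro hm
            have hg : g ∉ SO := (reflection_mul_mem_SO_iff Q hQ h2 v hv g).1 hm
            have h7 := ih.2 hg
            have h8 : reflectionIso Q v hv * g =
                (reflectionIso Q v hv * r₀) * (r₀ * g) := by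
              rw [mul_assoc, ← mul_assoc r₀, hrr, one_mul]
            rw [h8]
            refine H'.mul_mem ?_ h7
            have := H'.inv_mem (hall v hv)
            rwa [_root_.mul_inv_rev, reflectionIso_inv, hr₀, reflectionIso_inv] at this
          · intro hm
            have hg : g ∈ SO := by
              by_contra hg
              exact hm ((reflection_mul_mem_SO_iff Q hQ h2 v hv g).2 hg)
            rw [← mul_assoc]
            exact H'.mul_mem (hall v hv) (ih.1 hg)
      have htop : H = ⊤ := by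
        rw [eq_top_iff]
        rintro ⟨g, hg⟩ -
        rw [← hmemH']
        exact (hT g).1 hg
      rw [htop, Subgroup.index_top] at hH
      omega
    · intro hs
      exact hpair w vp hw h1 (hs.div hsqp)
  -- description of H'
  have hrr : r₀ * r₀ = 1 := reflectionIso_mul_self Q vp h1
  have hS₀ : S r₀ = 1 := by rw [hr₀, hSr, if_pos hsqp]
  have hSpair : ∀ (w : ι → F) (hw : Q w ≠ 0),
      (S (r₀ * reflectionIso Q w hw) = 1 ↔ IsSquare (Q w)) := by
    intro w hw
    rw [map_mul, hS₀, one_mul, hSr]
    by_cases hs : IsSquare (Q w)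
    · simp [hs]
    · simp [hs]
  have hPL' : ∀ (w : ι → F) (hw : Q w ≠ 0), (r₀ * reflectionIso Q w hw ∈ H' ↔
      S (r₀ * reflectionIso Q w hw) = 1) := fun w hw => (hPL w hw).trans (hSpair w hw).symm
  have hiff : ∀ (a b : ℤˣ), a * b = 1 ↔ (a = 1 ↔ b = 1) := by
    decide
  have hT : ∀ g : ↥(Cfsg.isometryGroup F (⇑Q)),
      (g ∈ SO → (g ∈ H' ↔ S g = 1)) ∧ (g ∉ SO → (r₀ * g ∈ H' ↔ S (r₀ * g) = 1)) := by
    intro g
    induction g using isometry_induction Q hQ h2 with
    | h1 =>
      refine ⟨fun _ => ?_, fun h => absurd SO.one_mem h⟩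
      simp [H'.one_mem]
    | hstep v hv g ih =>
      constructor
      · intro hm
        have hg : g ∉ SO := (reflection_mul_mem_SO_iff Q hQ h2 v hv g).1 hm
        have h7 := ih.2 hg
        have h8 : reflectionIso Q v hv * g =
            (reflectionIso Q v hv * r₀) * (r₀ * g) := by
          rw [mul_assoc, ← mul_assoc r₀, hrr, one_mul]
        have hg0 : r₀ * g ∈ SO := (reflection_mul_mem_SO_iff Q hQ h2 vp h1 g).2 hg
        have hr1 : reflectionIso Q v hv * r₀ ∈ SO := hrSO v vp hv h1
        rw [h8, hmul _ _ hr1 hg0, map_mul, hiff, h7]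
        have h9 : reflectionIso Q v hv * r₀ ∈ H' ↔ S (reflectionIso Q v hv * r₀) = 1 := by
          have h10 := hPL' v hv
          have h11 : reflectionIso Q v hv * r₀ = (r₀ * reflectionIso Q v hv)⁻¹ := by
            rw [_root_.mul_inv_rev, reflectionIso_inv, hr₀, reflectionIso_inv]
          rw [h11, H'.inv_mem_iff, map_inv, inv_eq_one]
          exact h10
        rw [h9]
      · intro hm
        have hg : g ∈ SO := by
          by_contra hg
          exact hm ((reflection_mul_mem_SO_iff Q hQ h2 v hv g).2 hg)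
        have hr1 : r₀ * reflectionIso Q v hv ∈ SO := hrSO vp v h1 hv
        rw [← mul_assoc, hmul _ _ hr1 hg, map_mul, hiff, ih.1 hg, hPL' v hv]
  ext ⟨x, hx⟩
  rw [← hmemH', hK, MonoidHom.mem_ker]
  exact (hT x).1 hx

omit [Fintype F] in
theorem subgroup_eq_of_le_of_index_two {G : Type*} [Group G] {A B : Subgroup G} (hAB : A ≤ B)
    (hA : A.index = 2) (hB : B.index = 2) : A = B := by
  have h1 := Subgroup.relIndex_mul_index hAB
  rw [hA, hB] at h1
  have h3 : A.relIndex B = 1 := by omega
  exact le_antisymm hAB (Subgroup.relIndex_eq_one.1 h3)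

/-- Characteristic two: `SO = O` has exactly one subgroup of index two. -/
theorem so_unique_index_two_even [CharP F 2] (hQ : (polarBilin Q).Nondegenerate)
    (hF : (∃ c : F, c ≠ 0 ∧ c ≠ 1) ∨ Fintype.card ι ≠ 4) (hι : Nonempty ι) :
    ∃! H : Subgroup ↥(Cfsg.specialIsometryGroup F (⇑Q)), H.index = 2 := by
  classical
  have h20 : (2 : F) = 0 := Dickson.two_eq_zero'
  have hSO : Cfsg.specialIsometryGroup F (⇑Q) = ⊤ := by
    rw [eq_top_iff]
    intro g _
    rw [mem_SO_iff]
    rcases det_isometry Q hQ g with h | h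
    · exact h
    · rw [h]
      linear_combination -h20
  set SO := Cfsg.specialIsometryGroup F (⇑Q) with hSOdef
  have hsurj : Function.Surjective SO.subtype := by
    intro g
    exact ⟨⟨g, by rw [hSO]; trivial⟩, rfl⟩
  have hind := Dickson.omega_index_char_two hQ hF hι
  have hcomap : ((Cfsg.Omega F (⇑Q)).comap SO.subtype).index = 2 := by
    rw [Subgroup.index_comap_of_surjective _ hsurj]
    exact hind
  refine ⟨(Cfsg.Omega F (⇑Q)).comap SO.subtype, hcomap, ?_⟩
  intro H hH
  have hHc : H = (H.map SO.subtype).comap SO.subtype := by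
    rw [Subgroup.comap_map_eq_self]
    rw [(MonoidHom.ker_eq_bot_iff _).2 SO.subtype_injective]
    exact bot_le
  have hmapind : (H.map SO.subtype).index = 2 := by
    rw [hHc, Subgroup.index_comap_of_surjective _ hsurj] at hH
    exact hH
  have hle := omega_le_of_index_two Q _ hmapind
  have heq := subgroup_eq_of_le_of_index_two hle hind hmapind
  rw [hHc, ← heq]

end SO

end Cfsg.Agent.Lib.Classical.Orth.IndexTwo
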