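import Mathlib
import Cfsg.Agent.Lib.Classical.Orth.NegPairs

/-!
Orthogonal bases and the discriminant: for `q` odd and `n` even, `-1 ∈ Ω` iff the discriminant is a square.
-/

set_option autoImplicit false
set_option linter.unusedSectionVars false
set_option linter.unusedSimpArgs false
set_option linter.unusedVariables false

namespace Cfsg.Agent.Lib.Classical.Orth.Disc

open Matrix QuadraticMap Module
open Cfsg.Agent.Lib.Classical.Orth.Basic
open Cfsg.Agent.Lib.Classical.Orth.CartanDieudonne
open Cfsg.Agent.Lib.Classical.Orth.Spinor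
open Cfsg.Agent.Lib.Classical.Orth.NegPairs

variable {ι : Type} [Fintype ι] [DecidableEq ι] {F : Type*} [Field F]
variable (Q : QuadraticForm F (ι → F))

set_option quotPrecheck false in
local notation "𝔣" => polar (⇑Q)
set_option quotPrecheck false in
local notation "𝔯" => Cfsg.reflectionMatrix (⇑Q)

/-- An orthogonal basis indexed by `ι`. -/
theorem exists_orthogonal_basis' (h2 : (2 : F) ≠ 0) :
    ∃ v : Basis ι F (ι → F), ∀ i j, i ≠ j → 𝔣 (v i) (v j) = 0 := by
  letI : Invertible (2 : F) := invertibleOfNonzero h2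
  have hsymm : (polarBilin Q).IsSymm := ⟨fun x y => by
    simp only [polarBilin_apply_apply, RingHom.id_apply]
    exact polar_comm _ _ _⟩
  obtain ⟨v, hv⟩ := LinearMap.BilinForm.exists_orthogonal_basis hsymm
  have hcard : Fintype.card ι = finrank F (ι → F) := by
    rw [Module.finrank_fintype_fun_eq_card]
  let e : Fin (finrank F (ι → F)) ≃ ι := (Fintype.equivFinOfCardEq hcard).symm
  refine ⟨v.reindex e, ?_⟩
  intro i j hij
  rw [Basis.reindex_apply, Basis.reindex_apply]
  have h1 : e.symm i ≠ e.symm j := fun h => hij (e.symm.injective h)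
  have := hv h1
  simpa [Function.onFun, polarBilin_apply_apply] using this

theorem Q_basis_ne_zero (hQ : (polarBilin Q).Nondegenerate) (v : Basis ι F (ι → F))
    (hv : ∀ i j, i ≠ j → 𝔣 (v i) (v j) = 0) (i : ι) : Q (v i) ≠ 0 := by
  intro h0
  apply v.ne_zero i
  apply eq_zero_of_polar hQ
  intro y
  have hy : y = ∑ j, v.repr y j • v j := (v.sum_repr y).symm
  rw [hy, ← polarBilin_apply_apply, map_sum]
  apply Finset.sum_eq_zero
  intro j _
  rw [map_smul, polarBilin_apply_apply]
  by_cases hij : i = j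
  · subst hij
    rw [polar_self_eq, h0]
    simp
  · rw [hv i j hij]
    simp

/-- Product of the reflections in a list of orthogonal vectors. -/
theorem prod_reflections_apply (v : Basis ι F (ι → F)) (hv : ∀ i j, i ≠ j → 𝔣 (v i) (v j) = 0)
    (hv0 : ∀ i, Q (v i) ≠ 0) (l : List ι) (hl : l.Nodup) (j : ι) :
    ((l.map (fun i => v i)).map (fun w => 𝔯 w)).prod *ᵥ v j = if j ∈ l then - v j else v j := by
  induction l with
  | nil => simp
  | cons i l ih =>
    simp only [List.map_cons, List.prod_cons]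
    rw [← Matrix.mulVec_mulVec, ih (List.nodup_cons.1 hl).2]
    have hi := (List.nodup_cons.1 hl).1
    by_cases hij : j = i
    · subst hij
      rw [if_neg hi, if_pos List.mem_cons_self]
      exact reflectionMatrix_mulVec_self Q _ (hv0 _)
    · by_cases hjl : j ∈ l
      · rw [if_pos hjl, if_pos (List.mem_cons_of_mem _ hjl), Matrix.mulVec_neg,
          reflectionMatrix_mulVec_of_polar_eq_zero Q _ _ (hv i j (Ne.symm hij))]
      · rw [if_neg hjl, if_neg (by simp [hij, hjl]),
          reflectionMatrix_mulVec_of_polar_eq_zero Q _ _ (hv i j (Ne.symm hij))]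

theorem neg_one_eq_prod (v : Basis ι F (ι → F)) (hv : ∀ i j, i ≠ j → 𝔣 (v i) (v j) = 0)
    (hv0 : ∀ i, Q (v i) ≠ 0) :
    (-1 : Matrix ι ι F) =
      (((Finset.univ : Finset ι).toList.map (fun i => v i)).map (fun w => 𝔯 w)).prod := by
  set M := (((Finset.univ : Finset ι).toList.map (fun i => v i)).map (fun w => 𝔯 w)).prod with hM
  have h1 : Matrix.mulVecLin M = -LinearMap.id := by
    apply v.ext
    intro j
    rw [Matrix.mulVecLin_apply, hM, prod_reflections_apply Q v hv hv0 _ (Finset.nodup_toList _) j]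
    simp
  have h3 : ∀ x, (-1 : Matrix ι ι F) *ᵥ x = M *ᵥ x := by
    intro x
    have := LinearMap.congr_fun h1 x
    rw [Matrix.mulVecLin_apply] at this
    rw [this, Matrix.neg_mulVec, Matrix.one_mulVec]
    simp
  exact Matrix.ext_of_mulVec_single (fun j => h3 _)

/-- The Gram determinant in terms of an orthogonal basis. -/
theorem det_gram_mul_sq (v : Basis ι F (ι → F)) (hv : ∀ i j, i ≠ j → 𝔣 (v i) (v j) = 0) :
    ∃ c : F, c ^ 2 * (gram Q).det = 2 ^ Fintype.card ι * ∏ i, Q (v i) := by
  set P : Matrix ι ι F := Matrix.of (fun i j => v j i) with hP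
  refine ⟨P.det, ?_⟩
  have h1 : Pᵀ * gram Q * P = Matrix.diagonal (fun i => 2 * Q (v i)) := by
    ext i j
    have h3 : (Pᵀ * gram Q * P) i j = 𝔣 (v i) (v j) := by
      rw [polar_eq_dotProduct Q]
      simp only [Matrix.mul_apply, hP, Matrix.transpose_apply, Matrix.of_apply, dotProduct,
        Matrix.mulVec, Finset.mul_sum, Finset.sum_mul]
      rw [Finset.sum_comm]
      refine Finset.sum_congr rfl fun k _ => Finset.sum_congr rfl fun l _ => ?_
      ring
    rw [h3]
    by_cases hij : i = j
    · subst hij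
      rw [polar_self_eq]
      simp
    · rw [hv i j hij]
      simp [hij]
  have h4 := congrArg Matrix.det h1
  rw [Matrix.det_mul, Matrix.det_mul, Matrix.det_transpose, Matrix.det_diagonal,
    Finset.prod_mul_distrib, Finset.prod_const, Finset.card_univ] at h4
  rw [← h4]
  ring

theorem isSquare_sq_mul_iff {c x : F} (hc : c ≠ 0) : IsSquare (c ^ 2 * x) ↔ IsSquare x := by
  constructor
  · rintro ⟨s, hs⟩
    refine ⟨s / c, ?_⟩
    field_simp
    linear_combination hs
  · rintro ⟨s, rfl⟩
    exact ⟨c * s, by ring⟩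

/-- **`-1 ∈ Ω` iff the discriminant is a square** (`q` odd, `n` even). -/
theorem neg_one_mem_omega_iff_disc [Fintype F] (hQ : (polarBilin Q).Nondegenerate) (h2 : (2 : F) ≠ 0)
    (he : Even (Fintype.card ι)) :
    (∃ g : ↥(Cfsg.isometryGroup F (⇑Q)), g ∈ Cfsg.Omega F (⇑Q) ∧
        ((g : GL ι F) : Matrix ι ι F) = -1) ↔ IsSquare (gram Q).det := by
  obtain ⟨v, hv⟩ := exists_orthogonal_basis' Q h2
  have hv0 := Q_basis_ne_zero Q hQ v hv
  have hvs : ∀ w ∈ (Finset.univ : Finset ι).toList.map (fun i => v i), Q w ≠ 0 := by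
    intro w hw
    obtain ⟨i, -, rfl⟩ := List.mem_map.1 hw
    exact hv0 i
  rw [exists_omega_iff_list Q hQ h2 _ hvs _ (neg_one_eq_prod Q v hv hv0)]
  have hlen : Even ((Finset.univ : Finset ι).toList.map (fun i => v i)).length := by
    rw [List.length_map, Finset.length_toList, Finset.card_univ]
    exact he
  have hprod : (((Finset.univ : Finset ι).toList.map (fun i => v i)).map (fun w => Q w)).prod
      = ∏ i, Q (v i) := by
    rw [List.map_map]
    exact Finset.prod_map_toList _ _
  rw [hprod]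
  obtain ⟨c, hc⟩ := det_gram_mul_sq Q v hv
  have hprod0 : ∏ i, Q (v i) ≠ 0 := Finset.prod_ne_zero_iff.2 (fun i _ => hv0 i)
  have hc0 : c ≠ 0 := by
    rintro rfl
    have : (2 : F) ^ Fintype.card ι * ∏ i, Q (v i) ≠ 0 := mul_ne_zero (pow_ne_zero _ h2) hprod0
    rw [← hc] at this
    simp at this
  obtain ⟨k, hk⟩ := he
  have h4 : IsSquare ((gram Q).det) ↔ IsSquare (∏ i, Q (v i)) := by
    rw [← isSquare_sq_mul_iff hc0, hc, hk, ← two_mul, pow_mul, ← pow_mul 2 2 k, mul_comm 2 k,
      pow_mul 2 k 2, isSquare_sq_mul_iff (pow_ne_zero _ h2)]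
  rw [h4]
  constructor
  · rintro ⟨-, h⟩
    exact h
  · intro h
    exact ⟨hlen, h⟩

end Cfsg.Agent.Lib.Classical.Orth.Disc
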