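import Mathlib

/-!
A finite group all of whose commutators and squares lie in a central subgroup of order two: the square of a maximal
abelian subgroup is at least the product of the order of the group and the order of its centre.  In a matrix
representation in which the central involution acts as `-1`, transversals of the centre are linearly independent.
-/

set_option autoImplicit false
set_option linter.unusedSectionVars false
set_option linter.unusedSimpArgs false
set_option linter.unusedVariables false

namespace Cfsg.Agent.Lib.Classical.Orth.PSpRank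

open scoped commutatorElement Matrix

section Abstract

variable {W : Type*} [Group W] [Finite W] {z : W}

/-- The commutator with a fixed element, when commutators are central. -/
def commHom (hcen : ∀ x y : W, ⁅x, y⁆ ∈ Subgroup.center W) (a : W) : W →* W :=
  MonoidHom.mk' (fun x => ⁅x, a⁆) (by
    intro x y
    have h1 : ⁅x * y, a⁆ = x * ⁅y, a⁆ * x⁻¹ * ⁅x, a⁆ := by
      simp only [commutatorElement_def]
      group
    have h3 := Subgroup.mem_center_iff.1 (hcen y a) x
    have h4 : x * ⁅y, a⁆ * x⁻¹ = ⁅y, a⁆ := by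
      rw [h3, mul_inv_cancel_right]
    rw [h1, h4]
    exact (Subgroup.mem_center_iff.1 (hcen y a) ⁅x, a⁆).symm)

theorem commHom_apply (hcen : ∀ x y : W, ⁅x, y⁆ ∈ Subgroup.center W) (a x : W) : commHom hcen a x = ⁅x, a⁆ := rfl

theorem ker_commHom (hcen : ∀ x y : W, ⁅x, y⁆ ∈ Subgroup.center W) (a : W) :
    (commHom hcen a).ker = Subgroup.centralizer ({a} : Set W) := by
  ext x
  rw [MonoidHom.mem_ker, commHom_apply, commutatorElement_eq_one_iff_commute, Subgroup.mem_centralizer_singleton_iff]
  exact Iff.rfl

theorem index_centralizer_le (hcen : ∀ x y : W, ⁅x, y⁆ ∈ Subgroup.center W)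
    (hcomm : ∀ x y : W, ⁅x, y⁆ = 1 ∨ ⁅x, y⁆ = z) (a : W) :
    (Subgroup.centralizer ({a} : Set W)).index ≤ 2 := by
  classical
  rw [← ker_commHom hcen a, Subgroup.index_ker]
  have h1 : ((commHom hcen a).range : Set W) ⊆ (({1, z} : Finset W) : Set W) := by
    rintro _ ⟨x, rfl⟩
    rw [commHom_apply]
    simp only [Finset.coe_insert, Finset.coe_singleton, Set.mem_insert_iff, Set.mem_singleton_iff]
    exact hcomm x a
  have h2 : Nat.card (commHom hcen a).range ≤ ({1, z} : Finset W).card := by
    rw [← Set.ncard_coe_finset, ← Nat.card_coe_set_eq]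
    exact Nat.card_mono (Set.toFinite _) h1
  exact h2.trans Finset.card_le_two

/-- Growth of the centralizer index. -/
theorem index_centralizer_sup_le (hcen : ∀ x y : W, ⁅x, y⁆ ∈ Subgroup.center W)
    (hcomm : ∀ x y : W, ⁅x, y⁆ = 1 ∨ ⁅x, y⁆ = z) (B : Subgroup W) (a : W) :
    (Subgroup.centralizer ((B ⊔ Subgroup.zpowers a : Subgroup W) : Set W)).index ≤
      2 * (Subgroup.centralizer (B : Set W)).index := by
  set X := Subgroup.centralizer (B : Set W) ⊓ Subgroup.centralizer ({a} : Set W) with hX
  have h1 : X ≤ Subgroup.centralizer ((B ⊔ Subgroup.zpowers a : Subgroup W) : Set W) := by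
    rw [Subgroup.le_centralizer_iff, sup_le_iff]
    constructor
    · rw [← Subgroup.le_centralizer_iff]
      exact inf_le_left
    · rw [Subgroup.zpowers_le]
      intro x hx
      have h3 := (Subgroup.mem_inf.1 hx).2
      rw [Subgroup.mem_centralizer_singleton_iff] at h3
      exact h3
  have h3 := Subgroup.index_antitone h1
  have h4 := Subgroup.index_inf_le (H := Subgroup.centralizer (B : Set W))
    (K := Subgroup.centralizer ({a} : Set W))
  have h5 := index_centralizer_le hcen hcomm a
  calc _ ≤ X.index := h3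
    _ ≤ _ := h4
    _ ≤ (Subgroup.centralizer (B : Set W)).index * 2 := Nat.mul_le_mul_left _ h5
    _ = _ := mul_comm _ _

/-- Existence of a maximal abelian subgroup with the counting inequality. -/
theorem exists_abelian_card (hcen : ∀ x y : W, ⁅x, y⁆ ∈ Subgroup.center W)
    (hcomm : ∀ x y : W, ⁅x, y⁆ = 1 ∨ ⁅x, y⁆ = z) :
    ∃ A : Subgroup W, IsMulCommutative A ∧
      Nat.card W * Nat.card (Subgroup.center W) ≤ Nat.card A ^ 2 := by
  classical
  -- a maximal abelian subgroup
  have hfin : ({A : Subgroup W | IsMulCommutative A}).Finite := Set.toFinite _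
  have hne : ((⊥ : Subgroup W) ∈ {A : Subgroup W | IsMulCommutative A}) := by
    constructor
    constructor
    rintro ⟨x, hx⟩ ⟨y, hy⟩
    rw [Subgroup.mem_bot] at hx hy
    apply Subtype.ext
    simp [hx, hy]
  obtain ⟨A, hA⟩ := hfin.exists_le_maximal hne
  have hAmax := hA.2
  have hAab : IsMulCommutative A := hAmax.prop
  have hAcomm : ∀ x ∈ A, ∀ y ∈ A, x * y = y * x := by
    intro x hx y hy
    have := hAab.is_comm.comm ⟨x, hx⟩ ⟨y, hy⟩
    exact congrArg Subtype.val this
  have hAA : A ≤ Subgroup.centralizer (A : Set W) := by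
    intro x hx
    rw [Subgroup.mem_centralizer_iff]
    intro y hy
    exact hAcomm y hy x hx
  -- the centraliser of `A` is `A`
  have hC : Subgroup.centralizer (A : Set W) ≤ A := by
    intro x hx
    have hZA : Subgroup.zpowers x ≤ Subgroup.centralizer (A : Set W) := by
      rw [Subgroup.zpowers_le]
      exact hx
    have hAZ : A ≤ Subgroup.centralizer (Subgroup.zpowers x : Set W) := Subgroup.le_centralizer_iff.1 hZA
    have hZZ : Subgroup.zpowers x ≤ Subgroup.centralizer (Subgroup.zpowers x : Set W) := by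
      rw [Subgroup.zpowers_le, Subgroup.mem_centralizer_iff]
      rintro y ⟨k, rfl⟩
      exact ((Commute.refl x).zpow_left k).eq
    have hSA : A ⊔ Subgroup.zpowers x ≤ Subgroup.centralizer (A : Set W) := sup_le hAA hZA
    have hSZ : A ⊔ Subgroup.zpowers x ≤ Subgroup.centralizer (Subgroup.zpowers x : Set W) := sup_le hAZ hZZ
    have h1 : A ⊔ Subgroup.zpowers x ≤
        Subgroup.centralizer ((A ⊔ Subgroup.zpowers x : Subgroup W) : Set W) :=
      sup_le (Subgroup.le_centralizer_iff.1 hSA) (Subgroup.le_centralizer_iff.1 hSZ)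
    have hsub : IsMulCommutative ↥(A ⊔ Subgroup.zpowers x) := by
      constructor
      constructor
      rintro ⟨u, hu⟩ ⟨v, hv⟩
      apply Subtype.ext
      exact (Subgroup.mem_centralizer_iff.1 (h1 hv) u hu)
    have h2 : A ≤ A ⊔ Subgroup.zpowers x := le_sup_left
    have h3 := hAmax.le_of_ge hsub h2
    apply h3
    exact Subgroup.mem_sup_right (Subgroup.mem_zpowers x)
  have hYA : Subgroup.center W ≤ A := by
    refine le_trans ?_ hC
    intro y hy
    rw [Subgroup.mem_centralizer_iff]
    intro u _
    exact Subgroup.mem_center_iff.1 hy u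
  -- the induction, on subgroups of `A` containing the centre
  set Y := Subgroup.center W with hY
  let P : Subgroup W → Prop := fun B =>
    Y ≤ B ∧ B ≤ A ∧ (Subgroup.centralizer (B : Set W)).index * Nat.card Y ≤ Nat.card B
  have hP0 : P Y := by
    refine ⟨le_rfl, hYA, ?_⟩
    have h1 : Subgroup.centralizer (Y : Set W) = ⊤ := by
      rw [eq_top_iff]
      intro x _
      rw [Subgroup.mem_centralizer_iff]
      intro u hu
      exact (Subgroup.mem_center_iff.1 hu x).symm
    rw [h1, Subgroup.index_top, one_mul]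
  have hfin' : ({B : Subgroup W | P B}).Finite := Set.toFinite _
  obtain ⟨B, hB⟩ := hfin'.exists_le_maximal hP0
  have hBmax := hB.2
  obtain ⟨hB1, hB2, hB3⟩ := hBmax.prop
  have hBA : B = A := by
    by_contra hne'
    obtain ⟨a, haA, haB⟩ : ∃ a ∈ A, a ∉ B := by
      by_contra hcon
      push Not at hcon
      exact hne' (le_antisymm hB2 hcon)
    set B' := B ⊔ Subgroup.zpowers a with hB'
    have hlt : B < B' := by
      refine lt_of_le_of_ne le_sup_left ?_
      intro h
      apply haB
      rw [h]
      exact Subgroup.mem_sup_right (Subgroup.mem_zpowers a)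
    have hcard : 2 * Nat.card B ≤ Nat.card B' := by
      have h1 : Nat.card B ∣ Nat.card B' := Subgroup.card_dvd_of_le hlt.le
      have h2 : Nat.card B < Nat.card B' := by
        have h6 := Set.ncard_lt_ncard (SetLike.coe_ssubset_coe.2 hlt) (Set.toFinite _)
        rw [← Nat.card_coe_set_eq, ← Nat.card_coe_set_eq] at h6
        exact h6
      obtain ⟨k, hk⟩ := h1
      rw [hk]
      have hpos : 0 < Nat.card B := Nat.card_pos
      have hk2 : 2 ≤ k := by
        by_contra hcon
        have : k ≤ 1 := by omega
        have h3 : Nat.card B * k ≤ Nat.card B * 1 := Nat.mul_le_mul_left _ this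
        omega
      calc 2 * Nat.card B = Nat.card B * 2 := mul_comm _ _
        _ ≤ Nat.card B * k := Nat.mul_le_mul_left _ hk2
    have hPB' : P B' := by
      refine ⟨hB1.trans hlt.le, sup_le hB2 ((Subgroup.zpowers_le).2 haA), ?_⟩
      have h1 := index_centralizer_sup_le hcen hcomm B a
      calc _ ≤ (2 * (Subgroup.centralizer (B : Set W)).index) * Nat.card Y := Nat.mul_le_mul_right _ h1
        _ = 2 * ((Subgroup.centralizer (B : Set W)).index * Nat.card Y) := by ring
        _ ≤ 2 * Nat.card B := Nat.mul_le_mul_left _ hB3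
        _ ≤ _ := hcard
    have := hBmax.le_of_ge hPB' hlt.le
    exact absurd (lt_of_lt_of_le hlt this) (lt_irrefl _)
  subst hBA
  refine ⟨B, hAab, ?_⟩
  have hCA : Subgroup.centralizer (B : Set W) = B := le_antisymm hC hAA
  rw [hCA] at hB3
  have h1 := Subgroup.card_mul_index B
  rw [← h1, pow_two, mul_assoc]
  exact Nat.mul_le_mul_left _ hB3

/-- Transversals of the centre are linearly independent in a representation with `z ↦ -1`. -/
theorem card_quotient_center_le {ι : Type*} [Fintype ι] [DecidableEq ι] [Nonempty ι] {F : Type*} [Field F]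
    (h2 : (2 : F) ≠ 0) (hzz : z * z = 1) (hcen : ∀ x y : W, ⁅x, y⁆ ∈ Subgroup.center W)
    (hcomm : ∀ x y : W, ⁅x, y⁆ = 1 ∨ ⁅x, y⁆ = z) (ρ : W →* Matrix ι ι F) (hρz : ρ z = -1) :
    Nat.card (W ⧸ Subgroup.center W) ≤ Fintype.card ι ^ 2 := by
  classical
  have : Fintype (W ⧸ Subgroup.center W) := Fintype.ofFinite _
  let T : W ⧸ Subgroup.center W → W := Quotient.out
  have hT : ∀ e : W ⧸ Subgroup.center W, ((T e : W) : W ⧸ Subgroup.center W) = e := QuotientGroup.out_eq'
  let M : W ⧸ Subgroup.center W → Matrix ι ι F := fun e => ρ (T e)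
  let c : W → W → F := fun h t => if ⁅h, t⁆ = 1 then 1 else -1
  have hconj : ∀ h t : W, ρ h * ρ t * ρ h⁻¹ = c h t • ρ t := by
    intro h t
    have h1 : h * t * h⁻¹ = ⁅h, t⁆ * t := by
      simp only [commutatorElement_def]
      group
    rw [← map_mul, ← map_mul, h1, map_mul]
    by_cases h3 : ⁅h, t⁆ = 1
    · simp [c, h3]
    · have h4 : ⁅h, t⁆ = z := (hcomm h t).resolve_left h3
      have hc : c h t = -1 := by simp [c, h3]
      rw [hc, h4, hρz]
      simp
  have hcmul : ∀ h a b : W, ⁅h, a * b⁆ = ⁅h, a⁆ * ⁅h, b⁆ := by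
    intro h a b
    have h1 : ⁅h, a * b⁆ = ⁅h, a⁆ * (a * ⁅h, b⁆ * a⁻¹) := by
      simp only [commutatorElement_def]
      group
    have h3 := Subgroup.mem_center_iff.1 (hcen h b) a
    rw [h1, h3, mul_inv_cancel_right]
  have hsep : ∀ e₁ e₂ : W ⧸ Subgroup.center W, e₁ ≠ e₂ → ∃ h : W, c h (T e₁) ≠ c h (T e₂) := by
    intro e₁ e₂ hne
    have h1 : (T e₁)⁻¹ * T e₂ ∉ Subgroup.center W := by
      intro hmem
      apply hne
      rw [← hT e₁, ← hT e₂]
      exact QuotientGroup.eq.2 hmem
    rw [Subgroup.mem_center_iff] at h1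
    push Not at h1
    obtain ⟨h, hh⟩ := h1
    refine ⟨h, ?_⟩
    set u := (T e₁)⁻¹ * T e₂ with hu
    have h3 : ⁅h, u⁆ ≠ 1 := by
      intro h4
      rw [commutatorElement_eq_one_iff_commute] at h4
      exact hh h4.eq
    have h4 : ⁅h, u⁆ = z := (hcomm h u).resolve_left h3
    have hz1 : z ≠ 1 := by
      rw [← h4]
      exact h3
    have h5 : T e₂ = T e₁ * u := by
      rw [hu, mul_inv_cancel_left]
    have h6 : ⁅h, T e₂⁆ = ⁅h, T e₁⁆ * z := by
      rw [h5, hcmul, h4]
    have hne1 : (1 : F) ≠ -1 := by
      intro h7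
      apply h2
      linear_combination h7
    rcases hcomm h (T e₁) with h7 | h7
    · have h8 : ⁅h, T e₂⁆ ≠ 1 := by
        rw [h6, h7, one_mul]
        exact hz1
      simp only [c, h7, h8, if_true, if_false]
      exact hne1
    · have h8 : ⁅h, T e₂⁆ = 1 := by
        rw [h6, h7, hzz]
      have h9 : ⁅h, T e₁⁆ ≠ 1 := by
        rw [h7]
        exact hz1
      simp only [c, h8, h9, if_true, if_false]
      exact hne1.symm
  have hM0 : ∀ e, M e ≠ 0 := by
    intro e h0
    have h1 : ρ (T e) * ρ (T e)⁻¹ = 1 := by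
      rw [← map_mul, mul_inv_cancel, map_one]
    have h3 : ρ (T e) = 0 := h0
    rw [h3, zero_mul] at h1
    exact zero_ne_one h1
  have hLI : LinearIndependent F M := by
    rw [linearIndependent_iff']
    intro s
    induction s using Finset.induction_on with
    | empty =>
      intro g _ i hi
      simp at hi
    | insert e₁ s he₁ ih =>
      intro g hg
      rw [Finset.sum_insert he₁] at hg
      have hs : ∀ e ∈ s, g e = 0 := by
        intro e₂ he₂
        have hne : e₁ ≠ e₂ := fun h => he₁ (h ▸ he₂)
        obtain ⟨h, hh⟩ := hsep e₁ e₂ hne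
        set c₁ := c h (T e₁) with hc₁
        let g' : W ⧸ Subgroup.center W → F := fun e => g e * (c h (T e) - c₁)
        have h1 : ρ h * (g e₁ • M e₁ + ∑ e ∈ s, g e • M e) * ρ h⁻¹ =
            g e₁ • (c₁ • M e₁) + ∑ e ∈ s, g e • (c h (T e) • M e) := by
          rw [mul_add, add_mul, Finset.mul_sum, Finset.sum_mul]
          congr 1
          · rw [Matrix.mul_smul, Matrix.smul_mul, hconj]
          · apply Finset.sum_congr rfl
            intro e _
            rw [Matrix.mul_smul, Matrix.smul_mul, hconj]
        rw [hg, mul_zero, zero_mul] at h1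
        have h3 : ∑ e ∈ s, g' e • M e = 0 := by
          have h4 : ∑ e ∈ s, g' e • M e =
              (g e₁ • (c₁ • M e₁) + ∑ e ∈ s, g e • (c h (T e) • M e)) - c₁ • (g e₁ • M e₁ + ∑ e ∈ s, g e • M e) := by
            rw [smul_add, Finset.smul_sum, add_sub_add_comm, smul_comm (g e₁) c₁, sub_self, zero_add,
              ← Finset.sum_sub_distrib]
            apply Finset.sum_congr rfl
            intro e _
            simp only [g']
            module
          rw [h4, ← h1, hg, smul_zero, sub_zero]
        have h5 := ih g' h3 e₂ he₂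
        simp only [g'] at h5
        rcases mul_eq_zero.1 h5 with h6 | h6
        · exact h6
        · exact absurd (sub_eq_zero.1 h6).symm hh
      intro i hi
      rcases Finset.mem_insert.1 hi with rfl | hi'
      · rw [Finset.sum_eq_zero (fun e he => by rw [hs e he, zero_smul]), add_zero] at hg
        rcases smul_eq_zero.1 hg with h1 | h1
        · exact h1
        · exact absurd h1 (hM0 _)
      · exact hs i hi'
  have h3 := hLI.fintype_card_le_finrank
  rw [Module.finrank_matrix, Module.finrank_self, mul_one, ← Nat.card_eq_fintype_card] at h3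
  rw [pow_two]
  exact h3

end Abstract

end Cfsg.Agent.Lib.Classical.Orth.PSpRank
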