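import Mathlib
import Cfsg.Agent.Lib.Classical.Orth.Simple

/-!
Characteristic two, finite field: elements of the orthogonal group which are conjugate in the symplectic group of the
polar form are conjugate in the orthogonal group.
-/

set_option autoImplicit false
set_option linter.unusedSectionVars false
set_option linter.unusedSimpArgs false
set_option linter.unusedVariables false

namespace Cfsg.Agent.Lib.Classical.Orth.SpConj

open Matrix QuadraticMap Module
open Cfsg.Agent.Lib.Classical.Orth.Basic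
open Cfsg.Agent.Lib.Classical.Orth.CartanDieudonne
open Cfsg.Agent.Lib.Classical.Orth.Classes
open Cfsg.Agent.Lib.Classical.Orth.Adjust

variable {ι : Type} [Fintype ι] [DecidableEq ι] {F : Type*} [Field F] [Fintype F] [CharP F 2]
variable {Q : QuadraticForm F (ι → F)}

set_option quotPrecheck false in
local notation "𝔣" => polar (⇑Q)

omit [Fintype ι] [DecidableEq ι] in
theorem two_zero : (2 : F) = 0 := CharTwo.two_eq_zero

theorem exists_sqrt (a : F) : ∃ s : F, s ^ 2 = a := by
  obtain ⟨s, hs⟩ := FiniteField.isSquare_of_char_two (ringChar.eq F 2) a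
  exact ⟨s, by rw [hs, _root_.sq]⟩

/-- The additive hom `x ↦ x² + x`. -/
noncomputable def wp : F →+ F where
  toFun x := x ^ 2 + x
  map_zero' := by simp
  map_add' x y := by
    have h2 : (2 : F) = 0 := two_zero
    linear_combination (x * y) * h2

omit [Fintype ι] [DecidableEq ι] in
theorem wp_apply (x : F) : wp x = x ^ 2 + x := rfl

/-- The image of `x ↦ x² + x` has index two. -/
theorem wp_index : (wp (F := F)).range.index = 2 := by
  classical
  have h1 := AddSubgroup.index_ker (wp (F := F))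
  have h3 := AddSubgroup.card_mul_index (wp (F := F)).ker
  have h4 := AddSubgroup.card_mul_index (wp (F := F)).range
  have hker : Nat.card (wp (F := F)).ker = 2 := by
    rw [Nat.card_eq_two_iff]
    refine ⟨⟨0, by simp [AddMonoidHom.mem_ker]⟩, ⟨1, ?_⟩, ?_, ?_⟩
    · rw [AddMonoidHom.mem_ker, wp_apply]
      have h2 : (2 : F) = 0 := two_zero
      linear_combination h2
    · intro h
      exact zero_ne_one (congrArg Subtype.val h)
    · ext ⟨x, hx⟩
      simp only [Set.mem_insert_iff, Set.mem_singleton_iff, Set.mem_univ, iff_true, Subtype.mk.injEq]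
      rw [AddMonoidHom.mem_ker, wp_apply] at hx
      have h5 : x * (x + 1) = 0 := by linear_combination hx
      rcases mul_eq_zero.1 h5 with h6 | h6
      · exact Or.inl h6
      · right
        have h2 : (2 : F) = 0 := two_zero
        linear_combination h6 - h2
  rw [h1] at h3
  have hpos : 0 < Nat.card F := Nat.card_pos
  rw [hker] at h3
  rw [← h3] at h4
  have h7 : 0 < Nat.card (wp (F := F)).range := by
    rw [Nat.card_pos_iff]
    exact ⟨inferInstance, inferInstance⟩
  have h8 : Nat.card (wp (F := F)).range * (wp (F := F)).range.index = Nat.card (wp (F := F)).range * 2 := by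
    rw [h4, mul_comm]
  exact Nat.eq_of_mul_eq_mul_left h7 h8

/-- Isotropy of the binary form `c x² + x y + e y²`. -/
theorem binary_isotropic_iff {c : F} (hc : c ≠ 0) (e : F) :
    (∃ x y : F, (x ≠ 0 ∨ y ≠ 0) ∧ c * x ^ 2 + x * y + e * y ^ 2 = 0) ↔ c * e ∈ (wp (F := F)).range := by
  have h2 : (2 : F) = 0 := two_zero
  constructor
  · rintro ⟨x, y, hxy, h⟩
    have hy : y ≠ 0 := by
      rintro rfl
      have hx : x ≠ 0 := by simpa using hxy
      simp only [mul_zero, add_zero, ne_eq, OfNat.ofNat_ne_zero, not_false_eq_true, zero_pow] at h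
      exact (mul_ne_zero hc (pow_ne_zero 2 hx)) h
    refine ⟨c * x / y, ?_⟩
    rw [wp_apply]
    have h5 : c * x ^ 2 + x * y = e * y ^ 2 := by linear_combination h - e * y ^ 2 * h2
    have h6 : (c * x / y) ^ 2 + c * x / y = c * (c * x ^ 2 + x * y) / y ^ 2 := by
      field_simp
    rw [h6, h5]
    field_simp
  · rintro ⟨z, hz⟩
    rw [wp_apply] at hz
    refine ⟨z / c, 1, Or.inr one_ne_zero, ?_⟩
    field_simp
    linear_combination hz + (c * e) * h2

/-- A function with the additivity of a squared linear form is a squared polar form. -/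
theorem exists_vector_of_additive (hQ : (polarBilin Q).Nondegenerate) (D : (ι → F) → F)
    (hadd : ∀ x y, D (x + y) = D x + D y) (hsmul : ∀ (c : F) x, D (c • x) = c ^ 2 * D x) :
    ∃ a, ∀ x, D x = (𝔣 a x) ^ 2 := by
  classical
  have hsq : ∀ y : F, ∃ s : F, s ^ 2 = y := exists_sqrt
  choose r hr using hsq
  have hinj : ∀ u v : F, u ^ 2 = v ^ 2 → u = v := by
    intro u v h
    have h2 : (2 : F) = 0 := two_zero
    have h3 : (u - v) ^ 2 = 0 := by
      linear_combination h + (v ^ 2 - u * v) * h2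
    have h4 := pow_eq_zero_iff (two_ne_zero) |>.1 h3
    exact sub_eq_zero.1 h4
  let φ : (ι → F) →ₗ[F] F :=
    { toFun := fun x => r (D x)
      map_add' := by
        intro x y
        apply hinj
        have h2 : (2 : F) = 0 := two_zero
        rw [hr, hadd]
        linear_combination -hr (D x) - hr (D y) - (r (D x)) * (r (D y)) * h2
      map_smul' := by
        intro c x
        apply hinj
        simp only [RingHom.id_apply, smul_eq_mul]
        rw [hr, hsmul, mul_pow, hr] }
  refine ⟨(LinearMap.BilinForm.toDual (polarBilin Q) hQ).symm φ, fun x => ?_⟩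
  have h1 : 𝔣 ((LinearMap.BilinForm.toDual (polarBilin Q) hQ).symm φ) x = φ x := by
    have := LinearMap.BilinForm.apply_toDual_symm_apply (B := polarBilin Q) (hB := hQ) φ x
    rwa [polarBilin_apply_apply] at this
  rw [h1]
  exact (hr (D x)).symm

variable (Q) in
/-- The transvection matrix. -/
noncomputable def tMatrix (b : ι → F) : Matrix ι ι F := 1 + vecMulVec b (Cfsg.polarVec (⇑Q) b)

theorem tMatrix_mulVec (b x : ι → F) : tMatrix Q b *ᵥ x = x + (𝔣 b x) • b := by
  unfold tMatrix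
  rw [Matrix.add_mulVec, Matrix.one_mulVec, Matrix.vecMulVec_mulVec, polarVec_dotProduct]
  congr 1
  ext i
  simp [mul_comm]

theorem polar_self_zero (x : ι → F) : 𝔣 x x = 0 := by
  rw [polar_self_eq, two_zero, zero_mul]

theorem tMatrix_mul_self (b : ι → F) : tMatrix Q b * tMatrix Q b = 1 := by
  apply Matrix.ext_of_mulVec_single
  intro j
  rw [← Matrix.mulVec_mulVec, tMatrix_mulVec, tMatrix_mulVec, polar_add_right, polar_smul_right', polar_self_zero,
    mul_zero, add_zero, Matrix.one_mulVec, add_assoc, ← add_smul]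
  have h2 : 𝔣 b (Pi.single j 1) + 𝔣 b (Pi.single j 1) = 0 := by
    rw [← two_mul, two_zero, zero_mul]
  rw [h2, zero_smul, add_zero]

theorem Q_tMatrix (b x : ι → F) : Q (tMatrix Q b *ᵥ x) = Q x + (𝔣 b x) ^ 2 * (Q b + 1) := by
  rw [tMatrix_mulVec, Q_add, Q_smul, polar_smul_right', polar_comm _ x b]
  ring

/-- The crux: the value of `Q` at the vector describing the difference of two forms of the same
polar form which are isometric. -/
theorem value_mem (hQ : (polarBilin Q).Nondegenerate) {M N : Matrix ι ι F} (hMN : M * N = 1) (hNM : N * M = 1)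
    (hpol : ∀ x y, 𝔣 (N *ᵥ x) (N *ᵥ y) = 𝔣 x y) {a : ι → F}
    (ha : ∀ x, Q (N *ᵥ x) = Q x + (𝔣 a x) ^ 2) : Q a = 0 ∨ Q a ∈ (wp (F := F)).range := by
  classical
  by_contra hcon
  push Not at hcon
  obtain ⟨hc0, hcR⟩ := hcon
  set c := Q a with hc
  have ha0 : a ≠ 0 := by
    rintro rfl
    exact hc0 (by rw [hc]; simp)
  have haa : 𝔣 a a = 0 := polar_self_zero a
  have h2 : (2 : F) = 0 := two_zero
  obtain ⟨b₀, hab⟩ : ∃ b₀, 𝔣 a b₀ = 1 := by
    obtain ⟨y, hy⟩ : ∃ y, 𝔣 a y ≠ 0 := by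
      by_contra hcon
      push Not at hcon
      exact ha0 (eq_zero_of_polar hQ hcon)
    refine ⟨(𝔣 a y)⁻¹ • y, ?_⟩
    rw [polar_smul_right']
    field_simp
  set d := Q b₀ with hd
  have hMv : ∀ x, M *ᵥ (N *ᵥ x) = x := by
    intro x
    rw [Matrix.mulVec_mulVec, hMN, Matrix.one_mulVec]
  have hNv : ∀ x, N *ᵥ (M *ᵥ x) = x := by
    intro x
    rw [Matrix.mulVec_mulVec, hNM, Matrix.one_mulVec]
  set B : LinearMap.BilinForm F (ι → F) := polarBilin Q with hB
  have hBnd : B.Nondegenerate := hQ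
  have hsymm : B.IsSymm := ⟨fun x y => by
    simp only [hB, polarBilin_apply_apply, RingHom.id_apply]; exact polar_comm _ _ _⟩
  have hrefl : B.IsRefl := hsymm.isRefl
  set P : Submodule F (ι → F) := Submodule.span F {a, b₀} with hP
  set W : Submodule F (ι → F) := B.orthogonal P with hW
  have hPW : B.orthogonal W = P := LinearMap.BilinForm.orthogonal_orthogonal hBnd hrefl P
  have hWa : ∀ w ∈ W, 𝔣 a w = 0 := by
    intro w hw
    have h1 : B a w = 0 := hw a (Submodule.subset_span (by simp))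
    rwa [hB, polarBilin_apply_apply] at h1
  have hwp : ∀ w ∈ W, ∀ p ∈ P, 𝔣 w p = 0 := by
    intro w hw p hp
    have h1 : B p w = 0 := hw p hp
    rw [hB, polarBilin_apply_apply] at h1
    rw [polar_comm]
    exact h1
  have hmemP : ∀ u, (∀ w ∈ W, 𝔣 w u = 0) → u ∈ P := by
    intro u hu
    rw [← hPW]
    refine LinearMap.BilinForm.mem_orthogonal_iff.2 (fun w hw => ?_)
    rw [hB, polarBilin_apply_apply]
    exact hu w hw
  -- the Witt extension of `N` on `W`
  set f : (ι → F) →ₗ[F] (ι → F) := Matrix.mulVecLin N with hf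
  have hfinj : Function.Injective f := by
    intro x y hxy
    have h1 : N *ᵥ x = N *ᵥ y := hxy
    rw [← hMv x, ← hMv y, h1]
  have hφ : ∀ x : W, Q ((Submodule.equivMapOfInjective f hfinj W x : W.map f) : ι → F) = Q (x : ι → F) := by
    intro x
    have h1 : ((Submodule.equivMapOfInjective f hfinj W x : W.map f) : ι → F) = N *ᵥ (x : ι → F) := rfl
    rw [h1, ha, hWa x x.2]
    simp
  obtain ⟨k, -, hk⟩ := exists_iso_of_witt hQ W (W.map f) (Submodule.equivMapOfInjective f hfinj W) hφ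
  have hkW : ∀ w ∈ W, act k w = N *ᵥ w := fun w hw => hk ⟨w, hw⟩
  -- the two transfers
  have hP1 : ∀ p ∈ P, act k⁻¹ (N *ᵥ p) ∈ P := by
    intro p hp
    apply hmemP
    intro w hw
    rw [← polar_act_left, hkW w hw, hpol]
    exact hwp w hw p hp
  have hP2 : ∀ p ∈ P, M *ᵥ (act k p) ∈ P := by
    intro p hp
    apply hmemP
    intro w hw
    rw [← hpol, hNv, ← hkW w hw, polar_act]
    exact hwp w hw p hp
  -- coordinates on `P`
  have hQP : ∀ x y : F, Q (x • a + y • b₀) = c * x ^ 2 + x * y + d * y ^ 2 := by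
    intro x y
    rw [Q_add, Q_smul, Q_smul, polar_smul_left', polar_smul_right', hab]
    ring
  have haP : ∀ x y : F, 𝔣 a (x • a + y • b₀) = y := by
    intro x y
    rw [polar_add_right, polar_smul_right', polar_smul_right', haa, hab]
    ring
  have hne : ∀ x y : F, x ≠ 0 ∨ y ≠ 0 → x • a + y • b₀ ≠ 0 := by
    intro x y hxy h0
    have h1 := haP x y
    rw [h0] at h1
    have hy : y = 0 := by
      rw [← h1]
      simp [polar]
    rw [hy, zero_smul, add_zero] at h0
    rcases smul_eq_zero.1 h0 with h3 | h3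
    · rcases hxy with h4 | h4
      · exact h4 h3
      · exact h4 hy
    · exact ha0 h3
  have hNne : ∀ u, u ≠ 0 → N *ᵥ u ≠ 0 := by
    intro u hu h0
    apply hu
    rw [← hMv u, h0]
    simp
  have hMne : ∀ u, u ≠ 0 → M *ᵥ u ≠ 0 := by
    intro u hu h0
    apply hu
    rw [← hNv u, h0]
    simp
  have hcoord : ∀ u ∈ P, u ≠ 0 → ∃ x y : F, (x ≠ 0 ∨ y ≠ 0) ∧ u = x • a + y • b₀ := by
    intro u hu hu0
    obtain ⟨x, y, rfl⟩ := Submodule.mem_span_pair.1 hu
    refine ⟨x, y, ?_, rfl⟩
    by_contra hcon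
    push Not at hcon
    apply hu0
    rw [hcon.1, hcon.2]
    simp
  -- equivalence of isotropy
  have e1 : (∃ x y : F, (x ≠ 0 ∨ y ≠ 0) ∧ c * x ^ 2 + x * y + (d + 1) * y ^ 2 = 0) →
      (∃ x y : F, (x ≠ 0 ∨ y ≠ 0) ∧ c * x ^ 2 + x * y + d * y ^ 2 = 0) := by
    rintro ⟨x, y, hxy, h⟩
    have hp : x • a + y • b₀ ∈ P := Submodule.mem_span_pair.2 ⟨x, y, rfl⟩
    have hu := hP1 _ hp
    have hu0 : act k⁻¹ (N *ᵥ (x • a + y • b₀)) ≠ 0 :=
      Cfsg.Agent.Lib.Classical.Orth.Simple.act_ne_zero _ (hNne _ (hne x y hxy))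
    obtain ⟨x', y', hxy', heq⟩ := hcoord _ hu hu0
    refine ⟨x', y', hxy', ?_⟩
    rw [← hQP, ← heq, Q_act, ha, hQP, haP]
    linear_combination h
  have e2 : (∃ x y : F, (x ≠ 0 ∨ y ≠ 0) ∧ c * x ^ 2 + x * y + d * y ^ 2 = 0) →
      (∃ x y : F, (x ≠ 0 ∨ y ≠ 0) ∧ c * x ^ 2 + x * y + (d + 1) * y ^ 2 = 0) := by
    rintro ⟨x, y, hxy, h⟩
    have hp : x • a + y • b₀ ∈ P := Submodule.mem_span_pair.2 ⟨x, y, rfl⟩
    have hu := hP2 _ hp
    have hu0 : M *ᵥ (act k (x • a + y • b₀)) ≠ 0 :=
      hMne _ (Cfsg.Agent.Lib.Classical.Orth.Simple.act_ne_zero _ (hne x y hxy))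
    obtain ⟨x', y', hxy', heq⟩ := hcoord _ hu hu0
    refine ⟨x', y', hxy', ?_⟩
    have h3 : Q (N *ᵥ (x' • a + y' • b₀)) = 0 := by
      rw [← heq, hNv, Q_act, hQP]
      exact h
    rw [ha, hQP, haP] at h3
    linear_combination h3
  have e3 := (binary_isotropic_iff hc0 d)
  have e4 := (binary_isotropic_iff hc0 (d + 1))
  have e5 : c * (d + 1) = c * d + c := by ring
  rw [e5] at e4
  by_cases h5 : c * d ∈ (wp (F := F)).range
  · have h6 := e4.1 (e2 (e3.2 h5))
    exact hcR ((AddSubgroup.add_mem_cancel_left _ h5).1 h6)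
  · have h6 : c * d + c ∈ (wp (F := F)).range :=
      (AddSubgroup.add_mem_iff_of_index_two wp_index).2 (by tauto)
    exact h5 (e3.1 (e1 (e4.2 h6)))

/-- Solving the equation for the transvection. -/
theorem exists_lambda {c : F} (hc : c = 0 ∨ c ∈ (wp (F := F)).range) : ∃ l : F, l ^ 2 * (l ^ 2 * c + 1) = 1 := by
  have h2 : (2 : F) = 0 := two_zero
  by_cases hc0 : c = 0
  · exact ⟨1, by rw [hc0]; ring⟩
  · obtain ⟨z, hz⟩ := hc.resolve_left hc0
    rw [wp_apply] at hz
    obtain ⟨l, hl⟩ := exists_sqrt (z / c)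
    refine ⟨l, ?_⟩
    rw [hl]
    field_simp
    linear_combination hz

/-- **Conjugacy in the symplectic group of the polar form implies conjugacy in the orthogonal group.** -/
theorem isConj_of_symplectic (hQ : (polarBilin Q).Nondegenerate) (t s : ↥(Cfsg.isometryGroup F (⇑Q))) (g : GL ι F)
    (hg : ∀ u v, 𝔣 ((g : Matrix ι ι F) *ᵥ u) ((g : Matrix ι ι F) *ᵥ v) = 𝔣 u v)
    (hc : g * (t : GL ι F) * g⁻¹ = (s : GL ι F)) : IsConj t s := by
  classical
  set M : Matrix ι ι F := (g : Matrix ι ι F) with hM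
  set N : Matrix ι ι F := ((g⁻¹ : GL ι F) : Matrix ι ι F) with hN
  have hMN : M * N = 1 := by
    rw [hM, hN, ← Units.val_mul, mul_inv_cancel, Units.val_one]
  have hNM : N * M = 1 := by
    rw [hM, hN, ← Units.val_mul, inv_mul_cancel, Units.val_one]
  have hMv : ∀ x, M *ᵥ (N *ᵥ x) = x := by
    intro x
    rw [Matrix.mulVec_mulVec, hMN, Matrix.one_mulVec]
  have hNv : ∀ x, N *ᵥ (M *ᵥ x) = x := by
    intro x
    rw [Matrix.mulVec_mulVec, hNM, Matrix.one_mulVec]
  have hpol : ∀ x y, 𝔣 (N *ᵥ x) (N *ᵥ y) = 𝔣 x y := by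
    intro x y
    rw [← hg (N *ᵥ x) (N *ᵥ y), hMv, hMv]
  -- the difference of the two forms
  obtain ⟨a, ha⟩ := exists_vector_of_additive hQ (fun x => Q (N *ᵥ x) - Q x)
    (by
      intro x y
      simp only [Matrix.mulVec_add]
      rw [Q_add, Q_add, hpol]
      ring)
    (by
      intro c x
      simp only [Matrix.mulVec_smul]
      rw [Q_smul, Q_smul]
      ring)
  have ha' : ∀ x, Q (N *ᵥ x) = Q x + (𝔣 a x) ^ 2 := by
    intro x
    rw [← ha]
    ring
  have hT : (M * ((t : GL ι F) : Matrix ι ι F)) = ((s : GL ι F) : Matrix ι ι F) * M := by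
    have h1 := congrArg (fun x : GL ι F => (x : Matrix ι ι F)) (show g * (t : GL ι F) = (s : GL ι F) * g by
      rw [← hc, inv_mul_cancel_right])
    exact h1
  have hT' : ∀ x, N *ᵥ (act s x) = act t (N *ᵥ x) := by
    intro x
    have h1 : M *ᵥ (act t (N *ᵥ x)) = act s x := by
      show M *ᵥ (((t : GL ι F) : Matrix ι ι F) *ᵥ (N *ᵥ x)) = ((s : GL ι F) : Matrix ι ι F) *ᵥ x
      rw [Matrix.mulVec_mulVec, hT, ← Matrix.mulVec_mulVec, hMv]
    rw [← h1, hNv]
  have h2 : (2 : F) = 0 := two_zero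
  have hinj : ∀ u v : F, u ^ 2 = v ^ 2 → u = v := by
    intro u v h
    have h3 : (u - v) ^ 2 = 0 := by
      linear_combination h + (v ^ 2 - u * v) * h2
    have h4 := pow_eq_zero_iff (two_ne_zero) |>.1 h3
    exact sub_eq_zero.1 h4
  -- `a` is fixed by `s`
  have hsa : act s a = a := by
    rw [← sub_eq_zero]
    apply eq_zero_of_polar hQ
    intro y
    have h3 : 𝔣 a (act s (act s⁻¹ y)) = 𝔣 a (act s⁻¹ y) := by
      apply hinj
      have h4 := ha' (act s (act s⁻¹ y))
      rw [hT', Q_act, Q_act] at h4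
      have h5 := ha' (act s⁻¹ y)
      rw [h5] at h4
      linear_combination -h4
    rw [polar_sub_left, polar_act_left]
    rw [act_act_inv] at h3
    rw [h3, sub_self]
  -- the transvection
  obtain ⟨l, hl⟩ := exists_lambda (value_mem hQ hMN hNM hpol ha')
  set b := l • a with hb
  have hQT : ∀ x, Q (tMatrix Q b *ᵥ x) = Q (N *ᵥ x) := by
    intro x
    rw [Q_tMatrix, ha', hb, polar_smul_left', Q_smul]
    congr 1
    linear_combination (𝔣 a x) ^ 2 * hl
  have hsb : act s b = b := by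
    rw [hb, act_smul, hsa]
  -- the conjugating element
  let T : GL ι F := ⟨tMatrix Q b, tMatrix Q b, tMatrix_mul_self b, tMatrix_mul_self b⟩
  have hkmem : T * g ∈ Cfsg.isometryGroup F (⇑Q) := by
    rw [mem_isometryGroup_iff]
    intro x
    show Q ((tMatrix Q b * M) *ᵥ x) = Q x
    rw [← Matrix.mulVec_mulVec, hQT, hNv]
  let k : ↥(Cfsg.isometryGroup F (⇑Q)) := ⟨T * g, hkmem⟩
  have hkact : ∀ x, act k x = tMatrix Q b *ᵥ (M *ᵥ x) := by
    intro x
    show (tMatrix Q b * M) *ᵥ x = _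
    rw [Matrix.mulVec_mulVec]
  rw [isConj_iff]
  refine ⟨k, ?_⟩
  have hkts : k * t = s * k := by
    apply ext_act
    intro x
    rw [act_mul, act_mul, hkact, hkact]
    have h3 : M *ᵥ (act t x) = act s (M *ᵥ x) := by
      show M *ᵥ (((t : GL ι F) : Matrix ι ι F) *ᵥ x) = ((s : GL ι F) : Matrix ι ι F) *ᵥ (M *ᵥ x)
      rw [Matrix.mulVec_mulVec, hT, Matrix.mulVec_mulVec]
    rw [h3, tMatrix_mulVec, tMatrix_mulVec, act_add, act_smul, hsb]
    congr 2
    conv_lhs => rw [← hsb]
    rw [polar_act]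
  rw [hkts, mul_inv_cancel_right]

theorem isConj_iff_symplectic (hQ : (polarBilin Q).Nondegenerate) (t s : ↥(Cfsg.isometryGroup F (⇑Q))) :
    IsConj t s ↔ ∃ g ∈ Cfsg.preserving (Units.coeHom (Matrix ι ι F)) (fun u v => Q (u + v) - Q u - Q v),
      g * (t : GL ι F) * g⁻¹ = (s : GL ι F) := by
  constructor
  · intro h
    obtain ⟨k, hk⟩ := isConj_iff.1 h
    refine ⟨k.1, ?_, congrArg Subtype.val hk⟩
    intro u v
    exact polar_act k u v
  · rintro ⟨g, hg, hc⟩
    exact isConj_of_symplectic hQ t s g (fun u v => hg u v) hc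

end Cfsg.Agent.Lib.Classical.Orth.SpConj
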